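-- TWOP: the r = 2 slice of S5973 (plus-type orthogonal groups, totally singular m-spaces, m < d),
-- design-independent.  Interface file (helper37): package statements and the target.
import Mathlib
import Cfsg.Prelude.Def_GeometricClasses
import Cfsg.Prelude.Def_Classical

set_option autoImplicit false
open scoped MatrixGroups
open Matrix

namespace Cfsg.Agent.Lib.Helper37.TwoP

universe u

/-- The conclusion: an invariant totally singular `m`-space of the matrix `X`. -/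
def HasTS {F : Type u} [Field F] (d m : ℕ) (X : Matrix (Fin d ⊕ Fin d) (Fin d ⊕ Fin d) F) : Prop :=
  ∃ W : Submodule F (Fin d ⊕ Fin d → F), Module.finrank F ↥W = m ∧
    (∀ w ∈ W, Cfsg.quadFormPlus d F w = 0) ∧ W.map (Matrix.toLin' X) ≤ W

/-- **[INV]** a non-scalar involution of `Ω⁺_{2d}(q)` fixes a totally singular `m`-space when
`m ≤ d - 2` or `q ≡ 1 (mod 4)` (and `m < d`). -/
def PkgInv : Prop :=
  ∀ {F : Type u} [Field F] [Fintype F] (d m : ℕ), Odd (Fintype.card F) → m < d →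
    (Fintype.card F % 4 = 1 ∨ m + 2 ≤ d) →
    ∀ x : GL (Fin d ⊕ Fin d) F, x ∈ Cfsg.Geo.omegaGL (Cfsg.quadFormPlus d F) →
      (x : Matrix (Fin d ⊕ Fin d) (Fin d ⊕ Fin d) F) *
        (x : Matrix (Fin d ⊕ Fin d) (Fin d ⊕ Fin d) F) = 1 →
      (∀ z : F, (x : Matrix (Fin d ⊕ Fin d) (Fin d ⊕ Fin d) F) ≠
        z • (1 : Matrix (Fin d ⊕ Fin d) (Fin d ⊕ Fin d) F)) →
      HasTS d m (x : Matrix (Fin d ⊕ Fin d) (Fin d ⊕ Fin d) F)

/-- **[NEGA]** `q ≡ 1 (mod 4)`: an isometry with square `-1` fixes totally singular `m`-spaces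
for all `m ≤ d` (subspaces of an eigenspace). -/
def PkgNegA : Prop :=
  ∀ {F : Type u} [Field F] [Fintype F] (d m : ℕ), Fintype.card F % 4 = 1 → m ≤ d →
    ∀ X : Matrix (Fin d ⊕ Fin d) (Fin d ⊕ Fin d) F,
      (∀ v, Cfsg.quadFormPlus d F (X *ᵥ v) = Cfsg.quadFormPlus d F v) → X * X = -1 →
      HasTS d m X

/-- **[NEGB]** `q ≡ 3 (mod 4)`: an isometry with square `-1` fixes totally singular `m`-spaces
for all even `m < d`. -/
def PkgNegB : Prop :=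
  ∀ {F : Type u} [Field F] [Fintype F] (d m : ℕ), Fintype.card F % 4 = 3 → Even m → m < d →
    ∀ X : Matrix (Fin d ⊕ Fin d) (Fin d ⊕ Fin d) F,
      (∀ v, Cfsg.quadFormPlus d F (X *ᵥ v) = Cfsg.quadFormPlus d F v) → X * X = -1 →
      HasTS d m X

/-- **[EVEN]** `q ≡ 3 (mod 4)`: invariant subspaces of a matrix with square `-1` have even
dimension. -/
def PkgEven : Prop :=
  ∀ {F : Type u} [Field F] [Fintype F] {ι : Type} [Fintype ι] [DecidableEq ι],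
    Fintype.card F % 4 = 3 → ∀ X : Matrix ι ι F, X * X = -1 →
    ∀ W : Submodule F (ι → F), W.map (Matrix.toLin' X) ≤ W → Even (Module.finrank F ↥W)

/-- **[NEC]** `q ≡ 3 (mod 4)`, `d ≥ 2`: a non-scalar involution of `Ω⁺_{2d}(q)` without invariant
totally singular `(d-1)`-space. -/
def PkgNec : Prop :=
  ∀ {F : Type u} [Field F] [Fintype F] (d : ℕ), 2 ≤ d → Fintype.card F % 4 = 3 →
    ∃ x : GL (Fin d ⊕ Fin d) F, x ∈ Cfsg.Geo.omegaGL (Cfsg.quadFormPlus d F) ∧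
      (x : Matrix (Fin d ⊕ Fin d) (Fin d ⊕ Fin d) F) *
        (x : Matrix (Fin d ⊕ Fin d) (Fin d ⊕ Fin d) F) = 1 ∧
      (∀ z : F, (x : Matrix (Fin d ⊕ Fin d) (Fin d ⊕ Fin d) F) ≠
        z • (1 : Matrix (Fin d ⊕ Fin d) (Fin d ⊕ Fin d) F)) ∧
      ¬ HasTS d (d - 1) (x : Matrix (Fin d ⊕ Fin d) (Fin d ⊕ Fin d) F)

/-- The target: the `r = 2` slice of S5973. -/
def TwoPlus : Prop :=
  ∀ {F : Type u} [Field F] [Fintype F] (d m : ℕ), Odd (Fintype.card F) → 2 ≤ d → 1 ≤ m → m < d →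
    ((∀ x : GL (Fin d ⊕ Fin d) F, x ∈ Cfsg.Geo.omegaGL (Cfsg.quadFormPlus d F) →
      (∃ z : F, ((x ^ 2 : GL (Fin d ⊕ Fin d) F) : Matrix (Fin d ⊕ Fin d) (Fin d ⊕ Fin d) F) =
        z • (1 : Matrix (Fin d ⊕ Fin d) (Fin d ⊕ Fin d) F)) →
      (∀ z : F, (x : Matrix (Fin d ⊕ Fin d) (Fin d ⊕ Fin d) F) ≠
        z • (1 : Matrix (Fin d ⊕ Fin d) (Fin d ⊕ Fin d) F)) →
      ∃ W : Submodule F (Fin d ⊕ Fin d → F), Module.finrank F ↥W = m ∧
        (∀ w ∈ W, Cfsg.quadFormPlus d F w = 0) ∧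
        W.map (Matrix.toLin' (x : Matrix (Fin d ⊕ Fin d) (Fin d ⊕ Fin d) F)) ≤ W) ↔
    (Fintype.card F % 4 = 1 ∨
      (Fintype.card F % 4 = 3 ∧ m + 2 ≤ d ∧ (Even m ∨ (2 * d) % 4 = 2))))

end Cfsg.Agent.Lib.Helper37.TwoP
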