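-- TWOP (r = 2 slice of S5973) package [EVEN]: invariant subspaces of a matrix with square -1
-- have even dimension when -1 is not a square.
import Mathlib
import Cfsg.Agent.Lib.Helper37.TwoP.Defs

set_option autoImplicit false

namespace Cfsg.Agent.Lib.Helper37.TwoP

open Matrix Module

universe u

/-- the determinant trick, for any field in which `-1` is not a square -/
theorem even_finrank_of_sq_neg_one {F : Type u} [Field F] {ι : Type} [Fintype ι] [DecidableEq ι]
    (hns : ¬ IsSquare (-1 : F)) (X : Matrix ι ι F) (hXX : X * X = -1)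
    (W : Submodule F (ι → F)) (hW : W.map (Matrix.toLin' X) ≤ W) : Even (finrank F W) := by
  by_contra hodd
  rw [Nat.not_even_iff_odd] at hodd
  apply hns
  have hWi : ∀ w ∈ W, Matrix.toLin' X w ∈ W := fun w hw => hW ⟨w, hw, rfl⟩
  obtain ⟨g, hg⟩ : ∃ g : W →ₗ[F] W, g = (Matrix.toLin' X).restrict hWi := ⟨_, rfl⟩
  have hgg : g ∘ₗ g = (-1 : F) • LinearMap.id := by
    apply LinearMap.ext
    intro w
    apply Subtype.ext
    rw [hg]
    show Matrix.toLin' X (Matrix.toLin' X (w : ι → F)) = ((-1 : F) • w : W)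
    rw [Matrix.toLin'_apply, Matrix.toLin'_apply, mulVec_mulVec, hXX, neg_mulVec, one_mulVec]
    simp
  have hdet : LinearMap.det g * LinearMap.det g = (-1) ^ finrank F W := by
    rw [← LinearMap.det_comp, hgg, LinearMap.det_smul, LinearMap.det_id, mul_one]
  rw [hodd.neg_one_pow] at hdet
  exact ⟨LinearMap.det g, hdet.symm⟩

/-- **[EVEN]** -/
theorem pkgEven : PkgEven.{u} := by
  intro F _ _ ι _ _ h3 X hXX W hW
  have hns : ¬ IsSquare (-1 : F) := by
    rw [FiniteField.isSquare_neg_one_iff]
    exact fun h => h h3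
  exact even_finrank_of_sq_neg_one hns X hXX W hW

end Cfsg.Agent.Lib.Helper37.TwoP
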