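-- TWOP: assembly of the r = 2 slice of S5973 from the five packages.
import Mathlib
import Cfsg.Agent.Lib.Helper37.TwoP.Defs
import Cfsg.Agent.Lib.Helper45.OPar.Scal
import Cfsg.Agent.Lib.Helper20.OPar.Om1
import Cfsg.Agent.Lib.Helper80.OPar.Om2A
import Cfsg.Agent.Lib.Helper12.OHyp.EBlkOdd
import Cfsg.Agent.Lib.Helper14.Isom

set_option autoImplicit false
open scoped MatrixGroups
open Matrix

namespace Cfsg.Agent.Lib.Helper37.TwoP

universe u

theorem twoPlus_of (hInv : PkgInv.{u}) (hNegA : PkgNegA.{u}) (hNegB : PkgNegB.{u})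
    (hEven : PkgEven.{u}) (hNec : PkgNec.{u}) : TwoPlus.{u} := by
  intro F _ _ d m hodd hd hm hmd
  classical
  have hQ := Cfsg.Agent.Lib.Helper12.OHyp.nondeg_quadFormPlus (F := F) d
  have hq4 : Fintype.card F % 4 = 1 ∨ Fintype.card F % 4 = 3 := by
    obtain ⟨k, hk⟩ := hodd
    omega
  haveI : Nonempty (Fin d ⊕ Fin d) := ⟨Sum.inl ⟨0, by omega⟩⟩
  constructor
  · intro H
    rcases hq4 with h1 | h3
    · exact Or.inl h1
    · refine Or.inr ⟨h3, ?_, ?_⟩
      · by_contra hcon
        have hmd' : m = d - 1 := by omega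
        obtain ⟨x, hxΩ, hxx, hxns, hno⟩ := hNec d hd h3
        apply hno
        have h4 := H x hxΩ ⟨1, by rw [one_smul, pow_two, Units.val_mul]; exact hxx⟩ hxns
        rw [← hmd']
        exact h4
      · by_contra hcon
        rw [not_or] at hcon
        have hde : Even d := by
          rcases Nat.even_or_odd d with h | ⟨k, hk⟩
          · exact h
          · exfalso
            apply hcon.2
            omega
        obtain ⟨x, hxΩ, hxx⟩ := Cfsg.Agent.Lib.Helper20.OPar.pkgOm1 F hodd d (Or.inl hde)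
        have hns : ¬ IsSquare (-1 : F) := by
          rw [FiniteField.isSquare_neg_one_iff]
          exact fun h => h h3
        have h5 : ∀ z : F, (x : Matrix (Fin d ⊕ Fin d) (Fin d ⊕ Fin d) F) ≠
            z • (1 : Matrix (Fin d ⊕ Fin d) (Fin d ⊕ Fin d) F) := by
          intro z hz
          rw [hz] at hxx
          apply hns
          refine ⟨z, ?_⟩
          have h6 := congrFun (congrFun hxx (Sum.inl ⟨0, by omega⟩)) (Sum.inl ⟨0, by omega⟩)
          simp at h6
          exact h6.symm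
        obtain ⟨W, hWm, hWts, hWinv⟩ := H x hxΩ
          ⟨-1, by rw [pow_two, Units.val_mul, hxx, neg_smul, one_smul]⟩ h5
        exact hcon.1 (hWm ▸ hEven h3 _ hxx W hWinv)
  · intro hcond x hxΩ hz hxns
    obtain ⟨z, hz⟩ := hz
    obtain ⟨g, hg, hgx⟩ := Subgroup.mem_map.mp hxΩ
    have hgX : ((g : GL (Fin d ⊕ Fin d) F) : Matrix (Fin d ⊕ Fin d) (Fin d ⊕ Fin d) F) =
        (x : Matrix (Fin d ⊕ Fin d) (Fin d ⊕ Fin d) F) := by
      rw [← hgx]; rfl
    have hisom : ∀ v, Cfsg.quadFormPlus d F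
        ((x : Matrix (Fin d ⊕ Fin d) (Fin d ⊕ Fin d) F) *ᵥ v) = Cfsg.quadFormPlus d F v :=
      fun v => by
        rw [← hgX]; exact Cfsg.Agent.Lib.Helper14.isom_preserves g v
    have hXX : (x : Matrix (Fin d ⊕ Fin d) (Fin d ⊕ Fin d) F) *
        (x : Matrix (Fin d ⊕ Fin d) (Fin d ⊕ Fin d) F) =
        z • (1 : Matrix (Fin d ⊕ Fin d) (Fin d ⊕ Fin d) F) := by
      rw [← hz, pow_two, Units.val_mul]
    have hzz : z * z = 1 :=
      Cfsg.Agent.Lib.Helper45.OPar.pkgScal F (Fin d ⊕ Fin d) (Cfsg.quadFormPlus d F) hQ z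
        (fun v => by rw [← hXX, ← mulVec_mulVec, hisom, hisom])
    rcases mul_self_eq_one_iff.1 hzz with rfl | rfl
    · rw [one_smul] at hXX
      have hc : Fintype.card F % 4 = 1 ∨ m + 2 ≤ d := by
        rcases hcond with h | ⟨_, h, _⟩
        · exact Or.inl h
        · exact Or.inr h
      exact hInv d m hodd hmd hc x hxΩ hXX hxns
    · have hXX' : (x : Matrix (Fin d ⊕ Fin d) (Fin d ⊕ Fin d) F) *
          (x : Matrix (Fin d ⊕ Fin d) (Fin d ⊕ Fin d) F) = -1 := by
        rw [hXX, neg_smul, one_smul]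
      rcases hcond with h1 | ⟨h3, hm2, hev⟩
      · exact hNegA d m h1 hmd.le _ hisom hXX'
      · rcases hev with hev | hd4
        · exact hNegB d m h3 hev hmd _ hisom hXX'
        · exfalso
          have hdo : Odd d := by
            rcases Nat.even_or_odd d with ⟨k, hk⟩ | h
            · omega
            · exact h
          exact Cfsg.Agent.Lib.Helper80.OPar.pkgOm2A F h3 d hdo _ hisom hXX'

end Cfsg.Agent.Lib.Helper37.TwoP
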