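-- TWOP (r = 2 slice of S5973) package [NEC]: for q = 3 mod 4 a non-scalar involution of
-- Omega^+_{2d}(q) without invariant totally singular (d-1)-space.
import Mathlib
import Cfsg.Agent.Lib.Helper37.TwoP.Defs
import Cfsg.Agent.Lib.Helper37.OTS.Inv2Nec
import Cfsg.Agent.Lib.Helper14.Spinor
import Cfsg.Agent.Lib.Helper14.NegOne
import Cfsg.Agent.Lib.Helper14.Forms

set_option autoImplicit false
set_option linter.unusedSectionVars false

namespace Cfsg.Agent.Lib.Helper37.TwoP

open Cfsg Matrix Module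
open Cfsg.Agent.Lib.Helper14

universe u

section nec

variable {F : Type u} [Field F] [Fintype F]

/-- the anisotropic vector `e_i + f_i` -/
def uu (F : Type u) [Field F] (d : ℕ) (i : Fin d) : Fin d ⊕ Fin d → F :=
  Pi.single (Sum.inl i) 1 + Pi.single (Sum.inr i) 1

variable (d : ℕ)

theorem Qp_comb (i0 i1 : Fin d) (hne : i0 ≠ i1) (a b : F) :
    plusQF d F (a • uu F d i0 + b • uu F d i1) = a ^ 2 + b ^ 2 := by
  rw [plusQF_coe]
  have hne' : i1 ≠ i0 := fun h => hne h.symm
  simp only [Cfsg.quadFormPlus, uu, Pi.add_apply, Pi.smul_apply, Pi.single_apply, smul_eq_mul,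
    Sum.inl.injEq, Sum.inr.injEq, reduceCtorEq, if_false, add_zero, zero_add, mul_ite, mul_one,
    mul_zero]
  simp only [add_mul, mul_add, ite_mul, mul_ite, zero_mul, mul_zero, Finset.sum_add_distrib,
    Finset.sum_ite_eq', Finset.mem_univ, if_true, hne, hne', if_false]
  ring

theorem Qp_uu (i0 i1 : Fin d) (hne : i0 ≠ i1) : plusQF d F (uu F d i0) = 1 := by
  have h := Qp_comb (F := F) d i0 i1 hne 1 0
  simpa using h

theorem polp_uu (i : Fin d) (v : Fin d ⊕ Fin d → F) :
    QuadraticMap.polar (plusQF d F) (uu F d i) v = v (Sum.inr i) + v (Sum.inl i) := by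
  unfold uu
  rw [QuadraticMap.polar_add_left, plusQF_coe, plus_polar_inl, plus_polar_inr]

theorem Xp_mulVec (i0 i1 : Fin d) (hne : i0 ≠ i1) (v : Fin d ⊕ Fin d → F) :
    ([uu F d i0, uu F d i1].map (Cfsg.reflectionMatrix ⇑(plusQF d F))).prod *ᵥ v =
      v - (v (Sum.inr i0) + v (Sum.inl i0)) • uu F d i0 -
        (v (Sum.inr i1) + v (Sum.inl i1)) • uu F d i1 := by
  have hne' : i1 ≠ i0 := fun h => hne h.symm
  simp only [List.map_cons, List.map_nil, List.prod_cons, List.prod_nil, mul_one]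
  rw [← mulVec_mulVec, reflectionMatrix_mulVec, reflectionMatrix_mulVec, Qp_uu d i0 i1 hne,
    Qp_uu d i1 i0 hne', polp_uu, polp_uu]
  simp only [inv_one, one_mul, Pi.sub_apply, Pi.smul_apply, smul_eq_mul]
  have h1 : uu F d i1 (Sum.inr i0) = 0 := by simp [uu, hne]
  have h2 : uu F d i1 (Sum.inl i0) = 0 := by simp [uu, hne]
  rw [h1, h2, mul_zero, sub_zero, sub_zero]
  abel

end nec

/-- **[NEC]** -/
theorem pkgNec : PkgNec.{u} := by
  intro F _ _ d hd h3
  classical
  have h2 : (2 : F) ≠ 0 := Cfsg.Agent.Lib.Helper37.OTS.two_ne_zero_of_card h3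
  unfold HasTS
  rw [← plusQF_coe]
  obtain ⟨Q, hQdef⟩ : ∃ Q : QuadraticForm F (Fin d ⊕ Fin d → F), Q = plusQF d F := ⟨_, rfl⟩
  have hQ : (QuadraticMap.polarBilin Q).Nondegenerate := by
    rw [hQdef]
    exact plusQF_nondegenerate d F
  obtain ⟨i0, hi0⟩ : ∃ i : Fin d, i = ⟨0, by omega⟩ := ⟨_, rfl⟩
  obtain ⟨i1, hi1⟩ : ∃ i : Fin d, i = ⟨1, by omega⟩ := ⟨_, rfl⟩
  have hne : i0 ≠ i1 := by
    rw [hi0, hi1]
    intro h
    simp [Fin.ext_iff] at h
  have hne' : i1 ≠ i0 := fun h => hne h.symm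
  have hl : ∀ u ∈ [uu F d i0, uu F d i1], Q u ≠ 0 := by
    intro u hu
    simp only [List.mem_cons, List.not_mem_nil, or_false] at hu
    rcases hu with rfl | rfl
    · rw [hQdef, Qp_uu d i0 i1 hne]; exact one_ne_zero
    · rw [hQdef, Qp_uu d i1 i0 hne']; exact one_ne_zero
  obtain ⟨x, hxdef⟩ : ∃ x : ↥(Cfsg.isometryGroup F ⇑Q),
      x = prodElt Q hQ [uu F d i0, uu F d i1] hl := ⟨_, rfl⟩
  have hxmem : x ∈ commutator ↥(Cfsg.isometryGroup F ⇑Q) := by
    rw [hxdef, prodElt_mem_commutator_iff h2 Q hQ]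
    refine ⟨⟨1, rfl⟩, ?_⟩
    simp only [List.map_cons, List.map_nil, List.prod_cons, List.prod_nil, mul_one]
    rw [hQdef, Qp_uu d i0 i1 hne, Qp_uu d i1 i0 hne', mul_one]
    exact ⟨1, (mul_one 1).symm⟩
  obtain ⟨X, hXdef⟩ : ∃ X : Matrix (Fin d ⊕ Fin d) (Fin d ⊕ Fin d) F,
      X = ((x : GL (Fin d ⊕ Fin d) F) : Matrix (Fin d ⊕ Fin d) (Fin d ⊕ Fin d) F) := ⟨_, rfl⟩
  have hX : ∀ v : Fin d ⊕ Fin d → F,
      X *ᵥ v = v - (v (Sum.inr i0) + v (Sum.inl i0)) • uu F d i0 -
        (v (Sum.inr i1) + v (Sum.inl i1)) • uu F d i1 := by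
    intro v
    rw [hXdef, hxdef]
    have h := Xp_mulVec (F := F) d i0 i1 hne v
    rw [← hQdef] at h
    exact h
  subst hQdef
  have hc0 : ∀ v : Fin d ⊕ Fin d → F,
      (X *ᵥ v) (Sum.inr i0) + (X *ᵥ v) (Sum.inl i0) = - (v (Sum.inr i0) + v (Sum.inl i0)) := by
    intro v
    rw [hX]
    simp [uu, hne, hne']
  have hc1 : ∀ v : Fin d ⊕ Fin d → F,
      (X *ᵥ v) (Sum.inr i1) + (X *ᵥ v) (Sum.inl i1) = - (v (Sum.inr i1) + v (Sum.inl i1)) := by
    intro v
    rw [hX]
    simp [uu, hne, hne']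
  have hXX : X * X = 1 := by
    rw [Matrix.ext_iff_mulVec]
    intro v
    rw [← mulVec_mulVec, hX (_ *ᵥ v), hc0, hc1, hX v, one_mulVec]
    module
  refine ⟨(x : GL (Fin d ⊕ Fin d) F), ?_, ?_, ?_, ?_⟩
  · exact Subgroup.mem_map.2 ⟨x, hxmem, rfl⟩
  · rw [← hXdef]
    exact hXX
  · intro z hz
    rw [← hXdef] at hz
    have h4 := hX (uu F d i0)
    have h5 := hX (Pi.single (Sum.inl i0) 1 - Pi.single (Sum.inr i0) 1)
    rw [hz, smul_mulVec, one_mulVec] at h4 h5
    have h6 := congrFun h4 (Sum.inl i0)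
    have h7 := congrFun h5 (Sum.inl i0)
    simp [uu, hne, hne'] at h6 h7
    apply h2
    rw [h7] at h6
    linear_combination h6
  · rw [← hXdef]
    rintro ⟨W, hWd, hWts, hWinv⟩
    have hmem : ∀ w ∈ W, X *ᵥ w ∈ W := by
      intro w hw
      apply hWinv
      exact ⟨w, hw, Matrix.toLin'_apply _ _⟩
    have hzero : ∀ w ∈ W, w (Sum.inr i0) + w (Sum.inl i0) = 0 ∧
        w (Sum.inr i1) + w (Sum.inl i1) = 0 := by
      intro w hw
      have h4 : (w (Sum.inr i0) + w (Sum.inl i0)) • uu F d i0 +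
          (w (Sum.inr i1) + w (Sum.inl i1)) • uu F d i1 ∈ W := by
        have h5 := W.sub_mem hw (hmem w hw)
        rw [hX] at h5
        have h6 : w - (w - (w (Sum.inr i0) + w (Sum.inl i0)) • uu F d i0 -
            (w (Sum.inr i1) + w (Sum.inl i1)) • uu F d i1) =
            (w (Sum.inr i0) + w (Sum.inl i0)) • uu F d i0 +
          (w (Sum.inr i1) + w (Sum.inl i1)) • uu F d i1 := by module
        rw [h6] at h5
        exact h5
      have h5 := hWts _ h4
      rw [Qp_comb d i0 i1 hne] at h5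
      exact Cfsg.Agent.Lib.Helper37.OTS.sq_add_sq_eq_zero h3 h5
    obtain ⟨B, hB⟩ : ∃ B : LinearMap.BilinForm F (Fin d ⊕ Fin d → F),
        B = QuadraticMap.polarBilin (plusQF d F) := ⟨_, rfl⟩
    have hBapp : ∀ u v, B u v = QuadraticMap.polar (plusQF d F) u v := by
      intro u v
      rw [hB, QuadraticMap.polarBilin_apply_apply]
    have hts_orth : ∀ U : Submodule F (Fin d ⊕ Fin d → F), (∀ w ∈ U, plusQF d F w = 0) →
        U ≤ B.orthogonal U := by
      intro U hU w hw
      rw [LinearMap.BilinForm.mem_orthogonal_iff]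
      intro u hu
      rw [hBapp]
      unfold QuadraticMap.polar
      rw [hU u hu, hU w hw, hU _ (U.add_mem hu hw)]
      ring
    have hfin : ∀ U : Submodule F (Fin d ⊕ Fin d → F),
        finrank F (B.orthogonal U) = 2 * d - finrank F U := by
      intro U
      rw [hB, LinearMap.BilinForm.finrank_orthogonal (plusQF_nondegenerate d F) U]
      simp [two_mul]
    have hWP : W ≤ B.orthogonal W := hts_orth W hWts
    have hu0P : uu F d i0 ∈ B.orthogonal W := by
      rw [LinearMap.BilinForm.mem_orthogonal_iff]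
      intro u hu
      rw [hBapp, QuadraticMap.polar_comm, polp_uu, (hzero u hu).1]
    have hu1P : uu F d i1 ∈ B.orthogonal W := by
      rw [LinearMap.BilinForm.mem_orthogonal_iff]
      intro u hu
      rw [hBapp, QuadraticMap.polar_comm, polp_uu, (hzero u hu).2]
    have hu0W : uu F d i0 ∉ W := by
      intro h
      have h4 := hWts _ h
      rw [Qp_uu d i0 i1 hne] at h4
      exact one_ne_zero h4
    have hu1W : uu F d i1 ∉ W ⊔ Submodule.span F {uu F d i0} := by
      intro h
      obtain ⟨w, hw, z, hz, hwz⟩ := Submodule.mem_sup.1 h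
      obtain ⟨a, rfl⟩ := Submodule.mem_span_singleton.1 hz
      have h4 : w = (-a) • uu F d i0 + (1 : F) • uu F d i1 := by
        rw [← hwz]
        module
      have h5 := hWts w hw
      rw [h4, Qp_comb d i0 i1 hne] at h5
      exact one_ne_zero (Cfsg.Agent.Lib.Helper37.OTS.sq_add_sq_eq_zero h3 h5).2
    have hlt1 : W < W ⊔ Submodule.span F {uu F d i0} := by
      refine lt_of_le_of_ne le_sup_left (fun h => hu0W ?_)
      rw [h]
      exact Submodule.mem_sup_right (Submodule.mem_span_singleton_self _)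
    have hlt2 : W ⊔ Submodule.span F {uu F d i0} <
        W ⊔ Submodule.span F {uu F d i0} ⊔ Submodule.span F {uu F d i1} := by
      refine lt_of_le_of_ne le_sup_left (fun h => hu1W ?_)
      rw [h]
      exact Submodule.mem_sup_right (Submodule.mem_span_singleton_self _)
    have hle : W ⊔ Submodule.span F {uu F d i0} ⊔ Submodule.span F {uu F d i1} ≤
        B.orthogonal W := by
      refine sup_le (sup_le hWP ?_) ?_
      · rw [Submodule.span_singleton_le_iff_mem]
        exact hu0P
      · rw [Submodule.span_singleton_le_iff_mem]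
        exact hu1P
    have h5 := Submodule.finrank_lt_finrank_of_lt hlt1
    have h6 := Submodule.finrank_lt_finrank_of_lt hlt2
    have h8 := hfin W
    have heq : W ⊔ Submodule.span F {uu F d i0} ⊔ Submodule.span F {uu F d i1} =
        B.orthogonal W := by
      apply Submodule.eq_of_le_of_finrank_le hle
      omega
    -- the standard totally singular `d`-space
    obtain ⟨E, hE⟩ : ∃ E : Submodule F (Fin d ⊕ Fin d → F),
        E = LinearMap.ker (LinearMap.funLeft F F (Sum.inr : Fin d → Fin d ⊕ Fin d)) := ⟨_, rfl⟩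
    have hEmem : ∀ v, v ∈ E ↔ ∀ i, v (Sum.inr i) = 0 := by
      intro v
      rw [hE, LinearMap.mem_ker]
      constructor
      · intro h i
        exact congrFun h i
      · intro h
        funext i
        exact h i
    have hEts : ∀ w ∈ E, plusQF d F w = 0 := by
      intro w hw
      rw [plusQF_coe]
      unfold Cfsg.quadFormPlus
      apply Finset.sum_eq_zero
      intro i _
      rw [(hEmem w).1 hw i, mul_zero]
    have hEP : B.orthogonal E ≤ E := by
      intro v hv
      rw [hEmem]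
      intro i
      have h9 := (LinearMap.BilinForm.mem_orthogonal_iff.1 hv) (Pi.single (Sum.inl i) 1)
        ((hEmem _).2 (fun j => by simp))
      rw [hBapp, plusQF_coe, plus_polar_inl] at h9
      exact h9
    have hEd : finrank F E ≤ d := by
      have h9 := Submodule.finrank_mono (hts_orth E hEts)
      have h10 := hfin E
      omega
    have hT1 : B.orthogonal (E ⊔ W) ≤ E :=
      (LinearMap.BilinForm.orthogonal_le le_sup_left).trans hEP
    have hT2 : B.orthogonal (E ⊔ W) ≤ B.orthogonal W :=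
      LinearMap.BilinForm.orthogonal_le le_sup_right
    have hT3 : B.orthogonal (E ⊔ W) ≤ E ⊓ W := by
      intro t ht
      refine ⟨hT1 ht, ?_⟩
      have h9 := hT2 ht
      rw [← heq] at h9
      obtain ⟨y, hy, z1, hz1, hyz⟩ := Submodule.mem_sup.1 h9
      obtain ⟨w, hw, z0, hz0, hwz⟩ := Submodule.mem_sup.1 hy
      obtain ⟨a, rfl⟩ := Submodule.mem_span_singleton.1 hz0
      obtain ⟨b, rfl⟩ := Submodule.mem_span_singleton.1 hz1
      have h10 : t = w + (a • uu F d i0 + b • uu F d i1) := by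
        rw [← hyz, ← hwz]
        abel
      have h11 : plusQF d F t = 0 := hEts t (hT1 ht)
      have h12 : QuadraticMap.polar (plusQF d F) w (a • uu F d i0 + b • uu F d i1) = 0 := by
        rw [QuadraticMap.polar_comm, QuadraticMap.polar_add_left, QuadraticMap.polar_smul_left,
          QuadraticMap.polar_smul_left, polp_uu, polp_uu, (hzero w hw).1, (hzero w hw).2]
        simp
      have h13 : plusQF d F (a • uu F d i0 + b • uu F d i1) = 0 := by
        have h14 : plusQF d F t = plusQF d F w + plusQF d F (a • uu F d i0 + b • uu F d i1) +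
            QuadraticMap.polar (plusQF d F) w (a • uu F d i0 + b • uu F d i1) := by
          rw [h10]
          unfold QuadraticMap.polar
          ring
        rw [h11, hWts w hw, h12] at h14
        linear_combination -h14
      rw [Qp_comb d i0 i1 hne] at h13
      obtain ⟨ha, hb⟩ := Cfsg.Agent.Lib.Helper37.OTS.sq_add_sq_eq_zero h3 h13
      rw [h10, ha, hb]
      simpa using hw
    have h9 := Submodule.finrank_mono hT3
    have h10 := hfin (E ⊔ W)
    have h11 := Submodule.finrank_sup_add_finrank_inf_eq E W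
    omega

end Cfsg.Agent.Lib.Helper37.TwoP
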