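-- TWOP (r = 2 slice of S5973) package [NEGA]: q = 1 mod 4, an isometry with square -1 fixes
-- totally singular m-spaces for all m ≤ d (subspaces of an eigenspace).
import Mathlib
import Cfsg.Agent.Lib.Helper37.TwoP.Defs
import Cfsg.Agent.Lib.Helper12.OHyp.EBlkOdd
import Cfsg.Agent.Lib.Helper24.OTS.Inv2Suf

set_option autoImplicit false

namespace Cfsg.Agent.Lib.Helper37.TwoP

open Matrix Module

universe u

/-- eigenvectors for an eigenvalue with square `-1` are singular -/
theorem ts_eigen {F : Type u} [Field F] (d : ℕ) (h2 : (2 : F) ≠ 0)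
    (X : Matrix (Fin d ⊕ Fin d) (Fin d ⊕ Fin d) F)
    (hisom : ∀ v, Cfsg.quadFormPlus d F (X *ᵥ v) = Cfsg.quadFormPlus d F v)
    (e : F) (he : e * e = -1) (v : Fin d ⊕ Fin d → F) (hv : X *ᵥ v = e • v) :
    Cfsg.quadFormPlus d F v = 0 := by
  have hQ := Cfsg.Agent.Lib.Helper12.OHyp.nondeg_quadFormPlus (F := F) d
  have h1 := hisom v
  rw [hv, hQ.smul] at h1
  have h3 : (2 : F) * Cfsg.quadFormPlus d F v = 0 := by
    linear_combination (-(1 : F)) * h1 + (Cfsg.quadFormPlus d F v) * he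
  exact (mul_eq_zero.1 h3).resolve_left h2

/-- **[NEGA]** -/
theorem pkgNegA : PkgNegA.{u} := by
  intro F _ _ d m h1 hmd X hisom hXX
  classical
  have h2 : (2 : F) ≠ 0 := by
    intro h
    have h3 : ringChar F = 2 := CharP.ringChar_of_prime_eq_zero Nat.prime_two h
    have h4 := FiniteField.even_card_of_char_two h3
    omega
  obtain ⟨c, hc⟩ : IsSquare (-1 : F) := by
    rw [FiniteField.isSquare_neg_one_iff]
    omega
  have hcc : c * c = -1 := hc.symm
  have hcc' : (-c) * (-c) = -1 := by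
    rw [neg_mul_neg]
    exact hcc
  obtain ⟨E, hEdef⟩ : ∃ E : F → Submodule F (Fin d ⊕ Fin d → F),
      E = fun e => LinearMap.ker (Matrix.toLin' X - e • LinearMap.id) := ⟨_, rfl⟩
  have hE : ∀ e v, v ∈ E e ↔ X *ᵥ v = e • v := by
    intro e v
    rw [hEdef]
    simp only [LinearMap.mem_ker, LinearMap.sub_apply, LinearMap.smul_apply, LinearMap.id_apply,
      Matrix.toLin'_apply, sub_eq_zero]
  have hsup : E c ⊔ E (-c) = ⊤ := by
    rw [eq_top_iff]
    intro v _
    have ha : v - c • (X *ᵥ v) ∈ E c := by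
      rw [hE, mulVec_sub, mulVec_smul, mulVec_mulVec, hXX, neg_mulVec, one_mulVec, smul_sub,
        smul_smul, hcc]
      module
    have hb : v + c • (X *ᵥ v) ∈ E (-c) := by
      rw [hE, mulVec_add, mulVec_smul, mulVec_mulVec, hXX, neg_mulVec, one_mulVec, smul_add,
        smul_smul, neg_mul, hcc]
      module
    have hv : v = (2 : F)⁻¹ • (v - c • (X *ᵥ v)) + (2 : F)⁻¹ • (v + c • (X *ᵥ v)) := by
      have h3 : (v - c • (X *ᵥ v)) + (v + c • (X *ᵥ v)) = (2 : F) • v := by module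
      rw [← smul_add, h3, smul_smul, inv_mul_cancel₀ h2, one_smul]
    rw [hv]
    exact Submodule.add_mem _ (Submodule.mem_sup_left (Submodule.smul_mem _ _ ha))
      (Submodule.mem_sup_right (Submodule.smul_mem _ _ hb))
  have hfin : 2 * d ≤ finrank F (E c) + finrank F (E (-c)) := by
    have h := Submodule.finrank_sup_add_finrank_inf_eq (E c) (E (-c))
    rw [hsup, finrank_top] at h
    have h3 : finrank F (Fin d ⊕ Fin d → F) = 2 * d := by simp [two_mul]
    omega
  obtain ⟨e, hee, hed⟩ : ∃ e : F, e * e = -1 ∧ m ≤ finrank F (E e) := by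
    by_cases h : m ≤ finrank F (E c)
    · exact ⟨c, hcc, h⟩
    · exact ⟨-c, hcc', by omega⟩
  obtain ⟨W, hWle, hWd⟩ := Cfsg.Agent.Lib.Helper24.OTS.exists_le_finrank_eq (E e) m hed
  refine ⟨W, hWd, ?_, ?_⟩
  · intro w hw
    exact ts_eigen d h2 X hisom e hee w ((hE e w).1 (hWle hw))
  · rintro _ ⟨w, hw, rfl⟩
    rw [Matrix.toLin'_apply, (hE e w).1 (hWle hw)]
    exact W.smul_mem _ hw

end Cfsg.Agent.Lib.Helper37.TwoP
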