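-- TWOP: the r = 2 slice of S5973, unconditional.
import Mathlib
import Cfsg.Agent.Lib.Helper37.TwoP.Asm
import Cfsg.Agent.Lib.Helper37.TwoP.Nec
import Cfsg.Agent.Lib.Helper37.TwoP.Even
import Cfsg.Agent.Lib.Helper37.TwoP.NegA
import Cfsg.Agent.Lib.Helper40.TwoP.NegB
import Cfsg.Agent.Lib.Helper53.TwoP.Inv

set_option autoImplicit false

namespace Cfsg.Agent.Lib.Helper37.TwoP

universe u

/-- The `r = 2` slice of S5973: for `q` odd, `2 ≤ d`, `1 ≤ m < d`, every non-scalar element of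
`Ω⁺_{2d}(q)` with scalar square fixes a totally singular `m`-space iff `q ≡ 1 (mod 4)` or
(`q ≡ 3 (mod 4)`, `m + 2 ≤ d` and (`m` even or `2d ≡ 2 (mod 4)`)). -/
theorem twoPlus : TwoPlus.{u} :=
  twoPlus_of Cfsg.Agent.Lib.Helper53.TwoP.pkgInv pkgNegA Cfsg.Agent.Lib.Helper40.TwoP.pkgNegB
    pkgEven pkgNec

end Cfsg.Agent.Lib.Helper37.TwoP
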